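import Cfsg.Agent.H618.PslG.Form
import Cfsg.Agent.H953.Sympl
import Cfsg.Agent.S0249

/-!
# S4324, PSL: the graph automorphisms (helper618)

`false_of_graph` : an automorphism of prime order `p ≠ s` of `PSL_n(q)`, `n ≥ 3`, outside `PΓL_n(q)`, does not have
property `PC s`, if `s ≥ 3` and `n ≥ 2 ord_s(q)`.
-/

set_option autoImplicit false

namespace Cfsg.Agent.H618.PslG

open Matrix
open Cfsg.Agent.ClassicalGeometry.AutPSL.Root
open Cfsg.Agent.ClassicalGeometry.AutPSL.Auto
open Cfsg.Agent.ClassicalGeometry.AutPSL.Main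
open Cfsg.Agent.H216.Pi (PC)

section two

variable {F : Type*} [Field F]

/-- the matrix `J` -/
def JJ (F : Type*) [Field F] : GL (Fin 2) F where
  val := !![0, 1; -1, 0]
  inv := !![0, -1; 1, 0]
  val_inv := by ext i j; fin_cases i <;> fin_cases j <;> simp [Matrix.mul_apply, Fin.sum_univ_two]
  inv_val := by ext i j; fin_cases i <;> fin_cases j <;> simp [Matrix.mul_apply, Fin.sum_univ_two]

theorem itr_two : (itr : MulAut (Matrix.SpecialLinearGroup (Fin 2) F)) = cj (JJ F) := by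
  apply MulEquiv.ext
  intro g
  apply Subtype.ext
  rw [coe_itr, coe_cj]
  rw [Matrix.SpecialLinearGroup.coe_inv, adjugate_fin_two]
  change (!![g.1 1 1, -g.1 0 1; -g.1 1 0, g.1 0 0])ᵀ = !![0, 1; -1, 0] * g.1 * !![0, -1; 1, 0]
  ext i j
  rw [Matrix.mul_apply, Fin.sum_univ_two, Matrix.mul_apply, Matrix.mul_apply, Fin.sum_univ_two, Fin.sum_univ_two]
  fin_cases i <;> fin_cases j <;> simp

theorem fld_JJ (σ : F ≃+* F) : fld σ * cj (JJ F) = cj (JJ F) * fld σ := by
  apply MulEquiv.ext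
  intro g
  apply Subtype.ext
  ext i j
  change σ ((!![0, 1; -1, 0] * g.1 * !![0, -1; 1, 0] : Matrix (Fin 2) (Fin 2) F) i j) =
    (!![0, 1; -1, 0] * (g.1.map σ) * !![0, -1; 1, 0] : Matrix (Fin 2) (Fin 2) F) i j
  rw [Matrix.mul_apply, Fin.sum_univ_two, Matrix.mul_apply, Matrix.mul_apply, Fin.sum_univ_two, Fin.sum_univ_two,
    Matrix.mul_apply, Fin.sum_univ_two, Matrix.mul_apply, Matrix.mul_apply, Fin.sum_univ_two, Fin.sum_univ_two]
  fin_cases i <;> fin_cases j <;> simp

/-- trivial graph automorphism of `PSL_2`: the matrix is alternating -/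
theorem alt_of_two {B : GL (Fin 2) F} {σ : F ≃+* F} (h : lift (cj B * fld σ * itr) = 1) :
    σ = 1 ∧ B⁻¹.1 0 0 = 0 ∧ B⁻¹.1 1 1 = 0 ∧ B⁻¹.1 0 1 + B⁻¹.1 1 0 = 0 := by
  have h1 : cj B * fld σ * itr = cj (B * JJ F) * fld σ := by
    rw [itr_two, mul_assoc, fld_JJ, ← mul_assoc, map_mul]
  rw [h1] at h
  obtain ⟨⟨r, hr⟩, hσ⟩ := injective_aux (τ := 1) (h.trans (by rw [map_one, map_one]))
  have h2 : B⁻¹.1 * scalar (Fin 2) r = (JJ F).1 := by
    rw [hr, ← Units.val_mul, inv_mul_cancel_left]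
  have h3 : ∀ i j, B⁻¹.1 i j * r = (JJ F).1 i j := by
    intro i j
    rw [← h2, scalar_apply, mul_diagonal]
  have hr0 : r ≠ 0 := by
    rintro rfl
    have := h3 0 1
    rw [mul_zero] at this
    exact zero_ne_one (this.trans (by simp [JJ]))
  refine ⟨hσ, ?_, ?_, ?_⟩
  · exact (mul_eq_zero.1 ((h3 0 0).trans (by simp [JJ]))).resolve_right hr0
  · exact (mul_eq_zero.1 ((h3 1 1).trans (by simp [JJ]))).resolve_right hr0
  · refine (mul_eq_zero.1 (?_ : (B⁻¹.1 0 1 + B⁻¹.1 1 0) * r = 0)).resolve_right hr0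
    rw [add_mul, h3, h3]
    simp [JJ]

end two

section alt

variable {F : Type*} [Field F] [Fintype F] {n s d : ℕ}

/-- **the alternating case** -/
theorem false_of_alt (hn : 3 ≤ n) (hs : s.Prime) (h3 : 3 ≤ s) (hd : orderOf ((Fintype.card F : ℕ) : ZMod s) = d)
    (hd0 : 1 ≤ d) (hdn : 2 * d ≤ n) (A : GL (Fin n) F) (σ : F ≃+* F) (halt : ∀ u, bf A σ u u = 0)
    (hPC : PC s (lift (cj A * fld σ * itr))) : False := by
  have hneg : ∀ u v, bf A σ u v = - bf A σ v u := by
    intro u v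
    have h1 := halt (u + v)
    rw [bf_add_left, bf_add_right, bf_add_right, halt, halt, zero_add, add_zero] at h1
    exact eq_neg_of_add_eq_zero_left h1
  have hσ : σ = 1 := by
    let i0 : Fin n := ⟨0, by omega⟩
    have h1 : ∃ v, bf A σ (Pi.single i0 1) v ≠ 0 := by
      by_contra h
      push Not at h
      have h2 := congrFun (bf_nd h) i0
      rw [Pi.single_eq_same] at h2
      exact one_ne_zero h2
    obtain ⟨v, hv⟩ := h1
    apply RingEquiv.ext
    intro t
    have h2 := hneg (t • (Pi.single i0 1 : Fin n → F)) v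
    rw [bf_smul_left, bf_smul_right, hneg v, mul_neg, neg_neg] at h2
    exact (mul_right_cancel₀ hv h2).symm
  subst hσ
  let Bf : LinearMap.BilinForm F (Fin n → F) := LinearMap.mk₂ F (bf A 1) (fun u v w => bf_add_left u v w)
    (fun c u w => bf_smul_left c u w) (fun u v w => bf_add_right u v w) (fun c u w => bf_smul_right c u w)
  have hBf : ∀ u v, Bf u v = bf A 1 u v := fun _ _ => rfl
  obtain ⟨m, b, hb1, hb2, hb3⟩ := H953.exists_symplectic_basis Bf halt (fun u hu => bf_nd (σ := 1) hu)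
  have hnm : n = m + m := by
    have h1 := Module.finrank_eq_card_basis b
    rwa [Module.finrank_fin_fun, Fintype.card_sum, Fintype.card_fin] at h1
  obtain ⟨e, B, hB, he⟩ := exists_gram A 1 b
  have hB' : B⁻¹.1 = fromBlocks 0 (of fun i j => bf A 1 (b (Sum.inr j)) (b (Sum.inl i)))
      (of fun i j => bf A 1 (b (Sum.inl j)) (b (Sum.inr i))) 0 := by
    ext i j
    rw [hB]
    rcases i with i | i <;> rcases j with j | j
    · exact hb2 _ _
    · rfl
    · rfl
    · exact hb3 _ _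
  obtain ⟨X, Y, hXY⟩ := antiblocks_of_inv hB'
  have hfin : Finite (Matrix.ProjectiveSpecialLinearGroup (Fin n) F) := Quotient.finite _
  have hfin' : Finite (Matrix.ProjectiveSpecialLinearGroup (Fin m ⊕ Fin m) F) := Quotient.finite _
  have hPC' := PC.tr e hPC
  rw [he] at hPC'
  have hm : 2 ≤ m := by omega
  obtain ⟨a, ha, hac⟩ := exists_elt (F := F) (m := m) hm hs h3 hd hd0 (by omega)
  have : Nonempty (Fin m) := ⟨⟨0, by omega⟩⟩
  exact false_of_swap hXY hPC' ha hac

end alt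

section nonalt

variable {F : Type*} [Field F] [Fintype F] {k s d : ℕ}

theorem lift_split (hk : 2 ≤ k) (hs : s.Prime) (h3 : 3 ≤ s) (hd : orderOf ((Fintype.card F : ℕ) : ZMod s) = d)
    (hd0 : 1 ≤ d) (hdn : 2 * d ≤ k + 1) (A : GL (Fin (k + 1)) F) (σ : F ≃+* F)
    (hPC : PC s (lift (cj A * fld σ * itr))) (hsym : ∀ v w, bf A σ v w = 0 → bf A σ w v = 0)
    {u : Fin (k + 1) → F} (hu : bf A σ u u ≠ 0) :
    ∃ (w : Fin k → Fin (k + 1) → F) (B1 : GL (Fin k) F),
      (∀ v, bf A σ v u = 0 → ∃ c : Fin k → F, v = ∑ i, c i • w i) ∧ (∀ i, bf A σ (w i) u = 0) ∧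
      (∀ i j, B1⁻¹.1 i j = bf A σ (w j) (w i)) ∧ lift (cj B1 * fld σ * itr) = 1 := by
  obtain ⟨w, e, B, B1, B2, h1, h2, h4, h5, h6⟩ := exists_split A σ hu hsym
  have hfin : Finite (Matrix.ProjectiveSpecialLinearGroup (Fin (k + 1)) F) := Quotient.finite _
  have hfin' : Finite (Matrix.ProjectiveSpecialLinearGroup (Fin k ⊕ Unit) F) := Quotient.finite _
  have hPC' := PC.tr e hPC
  rw [h6] at hPC'
  have : Nonempty (Fin k) := ⟨⟨0, by omega⟩⟩
  have hsimple : IsSimpleGroup (Matrix.ProjectiveSpecialLinearGroup (Fin k) F) := by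
    rcases Nat.lt_or_ge k 3 with hk3 | hk3
    · have hk2 : k = 2 := by omega
      subst hk2
      have hd1 : d = 1 := by omega
      rw [hd1, orderOf_eq_one_iff] at hd
      have h7 : s ∣ Fintype.card F - 1 := by
        rw [← ZMod.natCast_eq_zero_iff, Nat.cast_sub Fintype.card_pos, hd]
        simp
      have h8 := Nat.le_of_dvd (by have := Fintype.one_lt_card (α := F); omega) h7
      exact Matrix.ProjectiveSpecialLinearGroup.rank_two_simple (by rw [Nat.card_eq_fintype_card]; omega)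
    · exact S0249.result k hk3
  have hdvd : s ∣ Nat.card (Matrix.ProjectiveSpecialLinearGroup (Fin k) F) :=
    dvd_card_psl hk hs h3 hd hd0 (by omega)
  exact ⟨w, B1, h1, h2, h5, lift_eq_one hs hdvd h4 hPC'⟩

end nonalt

section main

variable {F : Type*} [Field F] [Fintype F] {n : ℕ}

/-- **graph automorphisms of `PSL_n(q)`** -/
theorem false_of_graph' (hn : 3 ≤ n) {s d : ℕ} (hs : s.Prime) (h3 : 3 ≤ s)
    (hd : orderOf ((Fintype.card F : ℕ) : ZMod s) = d) (hd0 : 1 ≤ d) (hdn : 2 * d ≤ n) (A : GL (Fin n) F) (σ : F ≃+* F)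
    (x : MulAut (Matrix.ProjectiveSpecialLinearGroup (Fin n) F)) (hx : x = lift (cj A * fld σ * itr))
    (hp : (orderOf x).Prime) (hPC : PC s x) : False := by
  subst hx
  obtain ⟨hσ, r, hr0, hr⟩ := involution hn A σ hp
  have hsym : ∀ v w, bf A σ v w = 0 → bf A σ w v = 0 := fun v w h => bf_symm_zero hσ hr0 hr h
  by_cases halt : ∀ u, bf A σ u u = 0
  · exact false_of_alt hn hs h3 hd hd0 hdn A σ halt hPC
  obtain ⟨k, rfl⟩ : ∃ k, n = k + 1 := ⟨n - 1, by omega⟩
  push Not at halt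
  obtain ⟨u, hu⟩ := halt
  have hk : 2 ≤ k := by omega
  rcases Nat.lt_or_ge k 3 with hk3 | hk3
  · have hk2 : k = 2 := by omega
    subst hk2
    have claim : ∀ u, bf A σ u u ≠ 0 → (∀ w, bf A σ w u = 0 → bf A σ w w = 0) ∧
        ∃ e f, bf A σ e u = 0 ∧ bf A σ f u = 0 ∧ bf A σ f e ≠ 0 := by
      intro u hu
      obtain ⟨w, B1, h1, h2, h4, h5⟩ := lift_split hk hs h3 hd hd0 hdn A σ hPC hsym hu
      obtain ⟨hσ1, e1, e2, e4⟩ := alt_of_two h5
      constructor
      · intro v hv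
        obtain ⟨c, hc⟩ := h1 v hv
        rw [hc, Fin.sum_univ_two, bf_add_left, bf_add_right, bf_add_right]
        simp only [bf_smul_left, bf_smul_right]
        rw [← h4, ← h4, ← h4, ← h4, e1, e2, hσ1]
        change c 0 * (c 0 * 0) + c 1 * (c 0 * B1⁻¹.1 1 0) + (c 0 * (c 1 * B1⁻¹.1 0 1) + c 1 * (c 1 * 0)) = 0
        linear_combination c 0 * c 1 * e4
      · have h6 : B1⁻¹.1 ≠ 0 := by
          intro h
          have h7 : B1.1 * B1⁻¹.1 = 1 := by rw [← Units.val_mul, mul_inv_cancel, Units.val_one]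
          rw [h, Matrix.mul_zero] at h7
          exact zero_ne_one h7
        have h8 : ∃ i j, B1⁻¹.1 i j ≠ 0 := by
          by_contra h
          push Not at h
          exact h6 (Matrix.ext h)
        obtain ⟨i, j, hij⟩ := h8
        exact ⟨w i, w j, h2 i, h2 j, by rw [← h4]; exact hij⟩
    obtain ⟨c1, e, f, he, hf, hfe⟩ := claim u hu
    have hee := c1 e he
    have hff := c1 f hf
    have hue := hsym _ _ he
    have huf := hsym _ _ hf
    have hu' : bf A σ (u + e) (u + e) = bf A σ u u := by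
      rw [bf_add_left, bf_add_right, bf_add_right, hue, he, hee, add_zero, add_zero, add_zero]
    obtain ⟨c2, -⟩ := claim (u + e) (by rw [hu']; exact hu)
    set γ : F := -(bf A σ u u / bf A σ f e) with hγ
    have hw : bf A σ (u + γ • f) (u + e) = 0 := by
      rw [bf_add_left, bf_smul_left, bf_add_right, bf_add_right, hue, hf, add_zero, zero_add, hγ, neg_mul,
        div_mul_cancel₀ _ hfe, add_neg_cancel]
    have h9 := c2 _ hw
    rw [bf_add_left, bf_smul_left, bf_add_right, bf_add_right, bf_smul_right, bf_smul_right, huf, hf, hff, mul_zero,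
      add_zero, add_zero, mul_zero, add_zero] at h9
    exact hu h9
  · obtain ⟨w, B1, h1, h2, h4, h5⟩ := lift_split hk hs h3 hd hd0 hdn A σ hPC hsym hu
    exact not_graph (by rw [Fintype.card_fin]; exact hk3) (τ := 1) (h5.trans (by rw [map_one, map_one]))

/-- the announced form -/
theorem false_of_graph (hn : 3 ≤ n) {s d : ℕ} (hs : s.Prime) (h3 : 3 ≤ s)
    (hd : orderOf ((Fintype.card F : ℕ) : ZMod s) = d) (hd0 : 1 ≤ d) (hdn : 2 * d ≤ n) (A : GL (Fin n) F) (σ : F ≃+* F)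
    (x : MulAut (Matrix.ProjectiveSpecialLinearGroup (Fin n) F)) (hx : x = lift (cj A * fld σ * itr))
    (hp : (orderOf x).Prime) (_hps : orderOf x ≠ s) (hPC : PC s x) : False :=
  false_of_graph' hn hs h3 hd hd0 hdn A σ x hx hp hPC

end main

end Cfsg.Agent.H618.PslG
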